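import Cfsg.Agent.H202.TD.One
import Cfsg.Agent.H244.TD.One

/-!
# S3509, `³D₄(q)`, `q = 1 mod 3`: the interface `Hy` for the second class (helper202)
-/

set_option autoImplicit false
set_option linter.unusedSectionVars false
set_option maxHeartbeats 400000

namespace Cfsg.Agent.H202.TD

open CoxeterSystem Cfsg.Agent.ChevalleyStructure.CoxeterGeom Cfsg.Agent.Tits.Roots Cfsg.Agent.Tits.Core
  Cfsg.Agent.Tits.Exchange Cfsg.Agent.Nodes.Reps Cfsg.Agent.Nodes.BNOf Cfsg.Agent.Nodes.StabComb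
  Cfsg.Agent.Nodes.Bruhat Cfsg.Agent.Nodes.OppDec Cfsg.Agent.Nodes.LeviDec Cfsg.Agent.Nodes.RGDTwGen
  Cfsg.Agent.Nodes.RGDChev Cfsg.Agent.Nodes.RGDFold Cfsg.Agent.Nodes.RGDFoldSL Cfsg.Agent.Nodes.NormalForm
open Cfsg.Agent.KFacts.RgdOpp Cfsg.Agent.KFacts.RgdAut Cfsg.Agent.KFacts.RgdDiag Cfsg.Agent.KFacts.RgdRigid
  Cfsg.Agent.KFacts.RgdField Cfsg.Agent.KFacts.RgdTau Cfsg.Agent.KFacts.RgdNodes
open Cfsg.Lie Cfsg.Agent.ChevalleyStructure Cfsg.Agent.ChevalleyStructure.Elts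
open Cfsg.Agent.ChevalleyStructure.SL2Hom (up lo mem_closure_SL2)
open Cfsg.Agent.KFacts.TwDFour.Out
open Cfsg.Agent.Nodes.RGDTwD4 Cfsg.Agent.Nodes.RGDTwNode.D4
open Cfsg.Agent.CpAut.RgdFix Cfsg.Agent.CpAut.RgdConj Cfsg.Agent.CpAut.RgdTwStd Cfsg.Agent.CpAut.RgdTwD4
open Cfsg.Agent.H28.FamFour (st_mul st_one)
open Cfsg.Agent.H866.D4Wf.Frame Cfsg.Agent.H866.D4Wf.SLThree Cfsg.Agent.H866.TD

variable {K : Type} [Field K] [Fintype K] {q : ℕ} {hK : Fintype.card K = q ^ 3}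
  {φ : K →+* K} {hφ : ∀ x, φ x = x ^ q} {τ : K ≃+* K} {r : ℕ} [Fact r.Prime] [CharP K r]

theorem good_hS {d : KD φ 0} (h3 : d ^ 3 = 1) (h1 : d ≠ 1) : Good3 hK hφ (PhiD hφ hK 0 (hS d)) := by
  have h0 : d ≠ 0 := by
    rintro rfl
    rw [zero_pow three_ne_zero] at h3
    exact zero_ne_one h3
  have h3' : (d : K) ^ 3 = 1 := congrArg (fun a : KD φ 0 => (a : K)) h3
  refine ⟨PhiD_hS hφ hK 0 d h0, ?_, ?_, ?_, ?_⟩
  · rw [chD_hS hφ hK 0 d h0, ← pow_mul, mul_comm, pow_mul, h3, one_pow]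
  · rw [chD_hS hφ hK 0 d h0]
    intro h
    apply h1
    rw [pow_succ, h, one_mul] at h3
    exact h3
  · rw [ch01 hφ hK d h0, inv_pow, h3', inv_one]
  · rw [ch01 hφ hK d h0, map_inv₀]
    congr 1
    exact mem_Fx.1 d.2

variable (hK hφ r) in
/-- the interface of helper244 -/
theorem hy_of (hq : IsPrimePow q) (hτ : τ ^ 3 = 1) (hτ1 : τ ≠ 1) {t : ↥(twistedD4 K q)} (ht : Good3 hK hφ t) :
    H244.TD.One.Hy hK hφ r (MulAut.conj t * st q τ) := by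
  have : Finite CoxeterMatrix.G₂.Group := finiteW cs
  have D := diag_bt (τ := τ) hK hφ ht.mem
  refine ⟨?_, ?_, ?_, ?_, ?_⟩
  · intro z hz a ha
    exact (fix_X (rgd' hK hφ r) D (isRoot_of_mem hz) a).2 ha
  · intro w k hk
    exact fix_rp (rgd' hK hφ r) D hk
  · intro z hz a ha hf
    exact noFix_long hq hτ hz t ht a ha hf
  · intro z hz
    obtain ⟨a, ha, hf, ha1⟩ := hasFix_short (hK := hK) (hφ := hφ) hq hτ hτ1 hz t ht
    exact ⟨a, ha, ha1, hf⟩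
  · intro k hk hf
    exact (mem_WS hq hτ ht hk hf).2 rfl

variable (hK hφ r) in
theorem hy_hS (hq : IsPrimePow q) (hτ : τ ^ 3 = 1) (hτ1 : τ ≠ 1) {d : KD φ 0} (h3 : d ^ 3 = 1) (h1 : d ≠ 1) :
    H244.TD.One.Hy hK hφ r (MulAut.conj (PhiD hφ hK 0 (hS d)) * st q τ) :=
  hy_of hK hφ r hq hτ hτ1 (good_hS h3 h1)

/-- a torus element commuting with nontrivial elements of `X [0, 1]` and `X [1, 1]` -/
theorem eq_one_T (hK : Fintype.card K = q ^ 3) (hφ : ∀ x, φ x = x ^ q) {y a b : ↥(twistedD4 K q)} (hy : y ∈ T K q) (ha : a ∈ X φ q ![0, 1]) (ha1 : a ≠ 1) (hb : b ∈ X φ q ![1, 1])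
    (hb1 : b ≠ 1) (hya : y * a = a * y) (hyb : y * b = b * y) : y = 1 := by
  have key : ∀ s ∈ T K q, ∀ c ∈ X φ q ![0, 1], c ≠ 1 → s * c = c * s → chD hφ hK 1 s = 1 := by
    intro s hs c hc hc1 hsc
    rw [← sr1_eq] at hc
    obtain ⟨x, rfl⟩ := (mem_X hφ hK 1 c).1 hc
    have h1 := act_up hK hφ hs 1 x
    rw [hsc, mul_inv_cancel_right] at h1
    have h2 := (coordD hφ hK 1).inj h1
    have hx : x ≠ 0 := by
      rintro rfl
      exact hc1 (coordD hφ hK 1).zero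
    exact mul_right_cancel₀ hx ((h2.symm).trans (one_mul x).symm)
  have h1 := key y hy a ha ha1 hya
  have hP := PhiD_hS hφ hK 0 _ (ch_ne_zero hK hφ hy 0)
  have hT : (n hφ 0)⁻¹ * y * n hφ 0 ∈ T K q := by
    rw [n_conj_T hK hφ hy]
    exact mul_mem (inv_mem hP) hy
  have e11 : (![1, 1] : Fin 2 → ℤ) = rep cs isCartan (cs.simple 0) ![0, 1] := by
    rw [rep0]; norm_num
  rw [e11] at hb
  have hb' := n_conj' (hφ := hφ) hK 0 (by decide) hb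
  have h2 := key _ hT _ hb' (by
    intro h
    apply hb1
    have e : b = n hφ 0 * ((n hφ 0)⁻¹ * b * n hφ 0) * (n hφ 0)⁻¹ := by group
    rw [e, h]; group) (by
    calc (n hφ 0)⁻¹ * y * n hφ 0 * ((n hφ 0)⁻¹ * b * n hφ 0) = (n hφ 0)⁻¹ * (y * b) * n hφ 0 := by group
      _ = (n hφ 0)⁻¹ * (b * y) * n hφ 0 := by rw [hyb]
      _ = (n hφ 0)⁻¹ * b * n hφ 0 * ((n hφ 0)⁻¹ * y * n hφ 0) := by group)
  rw [n_conj_T hK hφ hy, ch_mul hK hφ (inv_mem hP) hy, h1, mul_one, ch_inv hK hφ hP, inv_eq_one] at h2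
  have h3 : chD hφ hK 0 y = 1 := by
    have h5 : (chD hφ hK 1 (PhiD hφ hK 0 (hS (chD hφ hK 0 y))) : K) = 1 := by rw [h2]; rfl
    rw [ch01 hφ hK _ (ch_ne_zero hK hφ hy 0), inv_eq_one] at h5
    exact Subtype.ext h5
  have h6 := conj_eq_one_of_ch hK hφ hy (by
    intro i
    have hi : i = 0 ∨ i = 1 := by fin_cases i <;> simp
    rcases hi with rfl | rfl
    · exact h3
    · exact h1)
  apply eq_one_of_center hK hφ
  intro g
  have h7 : MulAut.conj y g = g := by rw [h6]; rfl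
  rw [MulAut.conj_apply] at h7
  exact mul_inv_eq_iff_eq_mul.1 h7

end Cfsg.Agent.H202.TD
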