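import Cfsg.Agent.H202.TD.HyFill
import Cfsg.Agent.H244.TD.OneFin
import Cfsg.Agent.H442.TD.Diag3

/-!
# S3509, `³D₄(q)`, `q = 1 mod 3`: `MTwo` for the second class of outer automorphisms of order three (helper202)

`mtwo_hS`, `mtwo_one`.
-/

set_option autoImplicit false
set_option linter.unusedSectionVars false
set_option maxHeartbeats 400000

namespace Cfsg.Agent.H202.TD

open Cfsg.Agent.Nodes.RGDFoldSL Cfsg.Lie
open Cfsg.Agent.KFacts.TwDFour.Out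
open Cfsg.Agent.Nodes.RGDTwD4 Cfsg.Agent.Nodes.RGDTwNode.D4
open Cfsg.Agent.CpAut.RgdTwD4
open Cfsg.Agent.H866.D4Wf.Frame
open Cfsg.Agent.H911.TD (MTwo xo)

variable {K : Type} [Field K] [Fintype K] {q : ℕ} (hK : Fintype.card K = q ^ 3)
  {φ : K →+* K} (hφ : ∀ x, φ x = x ^ q) {τ : K ≃+* K} (r : ℕ) [Fact r.Prime] [CharP K r]

theorem mtwo_hS (hq : IsPrimePow q) (h4 : 4 ≤ q) (hτ : τ ^ 3 = 1) (hτ1 : τ ≠ 1) {d : KD φ 0} (h3 : d ^ 3 = 1)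
    (h1 : d ≠ 1) : MTwo (MulAut.conj (PhiD hφ hK 0 (hS d)) * st q τ) (PhiD hφ hK 0) r := by
  obtain ⟨n, hn0, hn⟩ := H27.Exc.exists_pow (r := r) three_pos hq hK
  exact H244.TD.One.mtwo_of_hy hK hφ (hS d) hq h4 hn hτ hτ1 (hy_hS hK hφ r hq hτ hτ1 h3 h1)
    (fun y hy a ha ha1 hya b hb hb1 hyb => eq_one_T hK hφ hy ha ha1 hb hb1 hya hyb)

/-- **`q = 1 mod 3`** -/
theorem mtwo_one (hq : IsPrimePow q) (h3 : q % 3 = 1) {A : Matrix.SpecialLinearGroup (Fin 2) (KD φ 0)} (hA : A ^ 3 = 1)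
    (hA1 : A ≠ 1) (hτ : τ ^ 3 = 1) (hτ1 : τ ≠ 1) : ∃ B : Matrix.SpecialLinearGroup (Fin 2) (KD φ 0),
      MTwo (MulAut.conj (PhiD hφ hK 0 (B * A * B⁻¹)) * st q τ) (PhiD hφ hK 0) r := by
  have h4 : 4 ≤ q := by
    have := hq.two_le
    omega
  obtain ⟨B, d, hd, hd3, hd1⟩ := H442.TD.Diag3.exists_conj_hS (F := KD φ 0) (by rw [card_KD0 hK hφ hq, h3]) hA hA1
  refine ⟨B, ?_⟩
  rw [hd]
  exact mtwo_hS hK hφ r hq h4 hτ hτ1 hd3 hd1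

end Cfsg.Agent.H202.TD
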